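import Mathlib

set_option autoImplicit false

namespace Cfsg.Agent.Lib.Helper37.AltSpec

open Equiv

/-- An element of prime order `q` normalizing a finite subgroup `M` with `q ∤ |M| - 1` commutes with
a nonidentity element of `M`. -/
theorem exists_fixed {G : Type*} [Group G] (M : Subgroup G) [Finite M] (y : G) (q : ℕ)
    [Fact q.Prime] (hy : y ^ q = 1) (hyM : ∀ m ∈ M, y * m * y⁻¹ ∈ M) (hq : ¬ q ∣ Nat.card M - 1) :
    ∃ x ∈ M, x ≠ 1 ∧ y * x = x * y := by
  classical
  by_contra hcon
  push Not at hcon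
  have := Fintype.ofFinite M
  let f : Function.End M := fun m => ⟨y * m * y⁻¹, hyM m m.2⟩
  have hpow : ∀ (k : ℕ) (m : M), (((f ^ k) m : M) : G) = y ^ k * m * (y ^ k)⁻¹ := by
    intro k
    induction k with
    | zero =>
      intro m
      have h0 : (f ^ 0) m = m := rfl
      rw [h0]; simp
    | succ k ih =>
      intro m
      have h0 : (f ^ (k + 1)) m = f ((f ^ k) m) := by rw [pow_succ']; rfl
      rw [h0]
      change y * ((f ^ k) m : G) * y⁻¹ = _
      rw [ih m, pow_succ']
      group
  have hf : f ^ q ^ 1 = 1 := by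
    funext m
    apply Subtype.ext
    rw [pow_one, hpow, hy]
    have h0 : (1 : Function.End M) m = m := rfl
    rw [h0]; simp
  have h1 := Equiv.Perm.card_fixedPoints_modEq hf
  have h2 : Fintype.card (Function.fixedPoints f) = 1 := by
    rw [Fintype.card_eq_one_iff]
    refine ⟨⟨1, ?_⟩, ?_⟩
    · apply Subtype.ext
      change y * ((1 : M) : G) * y⁻¹ = ((1 : M) : G)
      simp
    · rintro ⟨m, hm⟩
      apply Subtype.ext
      by_contra hm1
      have hm' : y * (m : G) * y⁻¹ = m := congrArg Subtype.val hm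
      apply hcon m m.2 (fun h => hm1 (Subtype.ext h))
      calc y * (m : G) = y * m * y⁻¹ * y := by group
        _ = m * y := by rw [hm']
  rw [h2, ← Nat.card_eq_fintype_card] at h1
  apply hq
  exact (Nat.modEq_iff_dvd' Nat.card_pos).1 h1.symm

/-- from a nonidentity element of an `r`-group commuting with an element of prime order `q ≠ r` we get
an element of order `r * q`. -/
theorem exists_orderOf_mul {G : Type*} [Group G] (x y : G) (r q k : ℕ) (hr : r.Prime) (hq : q.Prime)
    (hrq : r ≠ q) (hx : x ^ r ^ k = 1) (hx1 : x ≠ 1) (hy : orderOf y = q) (hxy : y * x = x * y) :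
    ∃ g ∈ Subgroup.closure ({x, y} : Set G), orderOf g = r * q := by
  obtain ⟨j, -, hj⟩ := (Nat.dvd_prime_pow hr).1 (orderOf_dvd_of_pow_eq_one hx)
  have hj0 : j ≠ 0 := by
    rintro rfl
    rw [pow_zero, orderOf_eq_one_iff] at hj
    exact hx1 hj
  obtain ⟨i, rfl⟩ := Nat.exists_eq_succ_of_ne_zero hj0
  have h1 : orderOf (x ^ r ^ i) = r := by
    rw [orderOf_pow_of_dvd (pow_ne_zero _ hr.ne_zero) (by rw [hj]; exact pow_dvd_pow _ (Nat.le_succ i)),
      hj, pow_succ, Nat.mul_div_cancel_left _ (pow_pos hr.pos _)]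
  have hc : Commute (x ^ r ^ i) y := (Commute.pow_right (show Commute y x from hxy) _).symm
  refine ⟨x ^ r ^ i * y, ?_, ?_⟩
  · exact mul_mem (pow_mem (Subgroup.subset_closure (by simp)) _) (Subgroup.subset_closure (by simp))
  · rw [hc.orderOf_mul_eq_mul_orderOf_of_coprime (by rw [h1, hy]; exact (Nat.coprime_primes hr hq).2 hrq),
      h1, hy]

/-- No permutation of `n` points has order `p * q` if `p ≠ q` are primes with `n < p + q`. -/
theorem perm_orderOf_ne (n p q : ℕ) (hp : p.Prime) (hq : q.Prime) (hpq : p ≠ q) (hn : n < p + q)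
    (σ : Perm (Fin n)) : orderOf σ ≠ p * q := by
  intro h
  have hl := Equiv.Perm.lcm_cycleType σ
  have hsum : σ.cycleType.sum ≤ n := by
    rw [Equiv.Perm.sum_cycleType]
    exact (Finset.card_le_univ _).trans (by simp)
  have key : ∀ r s : ℕ, r.Prime → s.Prime → r ≠ s → orderOf σ = r * s → ∃ a ∈ σ.cycleType, r ∣ a := by
    intro r s hr hs hrs ho
    by_contra hcon
    push Not at hcon
    have h1 : σ.cycleType.lcm ∣ s := by
      rw [Multiset.lcm_dvd]
      intro b hb
      have h2 : b ∣ r * s := by rw [← ho, ← hl]; exact Multiset.dvd_lcm hb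
      exact (Nat.Coprime.symm ((Nat.Prime.coprime_iff_not_dvd hr).2 (hcon b hb))).dvd_of_dvd_mul_left h2
    rw [hl, ho] at h1
    have h3 := Nat.le_of_dvd hs.pos h1
    have := hr.two_le
    nlinarith [hs.pos]
  obtain ⟨a, ha, hpa⟩ := key p q hp hq hpq h
  obtain ⟨b, hb, hqb⟩ := key q p hq hp hpq.symm (by rw [h, mul_comm])
  have ha0 : 0 < a := by
    have := Equiv.Perm.two_le_of_mem_cycleType ha; omega
  have hb0 : 0 < b := by
    have := Equiv.Perm.two_le_of_mem_cycleType hb; omega
  by_cases hab : a = b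
  · subst hab
    have h1 : p * q ∣ a := Nat.Coprime.mul_dvd_of_dvd_of_dvd ((Nat.coprime_primes hp hq).2 hpq) hpa hqb
    have h2 := Nat.le_of_dvd ha0 h1
    have h3 : a ≤ σ.cycleType.sum := Multiset.single_le_sum (fun _ _ => Nat.zero_le _) a ha
    have := hp.two_le
    have := hq.two_le
    nlinarith
  · have h1 : b ∈ σ.cycleType.erase a := (Multiset.mem_erase_of_ne (Ne.symm hab)).2 hb
    have h2 : b ≤ (σ.cycleType.erase a).sum := Multiset.single_le_sum (fun _ _ => Nat.zero_le _) b h1
    have h3 : a + (σ.cycleType.erase a).sum = σ.cycleType.sum := by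
      rw [← Multiset.sum_cons, Multiset.cons_erase ha]
    have := Nat.le_of_dvd ha0 hpa
    have := Nat.le_of_dvd hb0 hqb
    omega

end Cfsg.Agent.Lib.Helper37.AltSpec
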