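import Mathlib
import Cfsg.Agent.Lib.Helper37.AltSpec
import Cfsg.Agent.Lib.Helper1.Hall
import Cfsg.Agent.Lib.Lead.Hall
import Cfsg.Agent.Lib.Helper63.Alt2P.BC
import Cfsg.Agent.Lib.Helper63.Alt2P.BD

set_option autoImplicit false

namespace Cfsg.Agent.Lib.Helper37.AltSpec

open Equiv Nat

/-- primes in `(n/2, n]` -/
def Pi (n p : ℕ) : Prop := p.Prime ∧ n < 2 * p ∧ p ≤ n

theorem card_alt (n : ℕ) (hn : 2 ≤ n) : 2 * Nat.card (alternatingGroup (Fin n)) = n ! := by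
  have : Nontrivial (Fin n) := Fin.nontrivial_iff_two_le.2 hn
  rw [Nat.card_eq_fintype_card, two_mul_card_alternatingGroup, Fintype.card_perm, Fintype.card_fin]

theorem Pi.odd {n p : ℕ} (hn : 5 ≤ n) (h : Pi n p) : Odd p := by
  rcases h.1.eq_two_or_odd' with h2 | h2
  · have := h.2.1; omega
  · exact h2

theorem pi_val (n p : ℕ) (hn : 5 ≤ n) (h : Pi n p) :
    ∃ m, Nat.card (alternatingGroup (Fin n)) = p * m ∧ ¬ p ∣ m := by
  have := Fact.mk h.1
  have hc := card_alt n (by omega)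
  have hv : padicValNat p (n !) = 1 := by
    have h1 : n = p * 1 + (n - p) := by have := h.2.2; omega
    have h2 : n - p < p := by have := h.2.1; omega
    rw [h1, padicValNat_factorial_mul_add 1 h2, padicValNat_factorial_mul]
    simp
  have hodd := h.odd hn
  have hp2 : p.Coprime 2 := Nat.Coprime.symm (Nat.coprime_two_left.2 hodd)
  have hd : p ∣ Nat.card (alternatingGroup (Fin n)) := by
    have h1 : p ∣ 2 * Nat.card (alternatingGroup (Fin n)) := by
      rw [hc]; exact (Nat.Prime.dvd_factorial h.1).2 h.2.2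
    exact hp2.dvd_of_dvd_mul_left h1
  obtain ⟨m, hm⟩ := hd
  refine ⟨m, hm, ?_⟩
  rintro ⟨k, rfl⟩
  have h1 : p ^ 2 ∣ n ! := by
    rw [← hc, hm]
    exact ⟨2 * k, by ring⟩
  have h2 := (padicValNat_dvd_iff_le (p := p) (Nat.factorial_ne_zero n)).1 h1
  omega

theorem pi_not_dvd {n p q : ℕ} (hn : 5 ≤ n) (hp : Pi n p) (hq : Pi n q) : ¬ q ∣ p - 1 := by
  rintro ⟨c, hc⟩
  obtain ⟨a, ha⟩ := hp.odd hn
  obtain ⟨b, hb⟩ := hq.odd hn
  have h1 := hp.2.2
  have h2 := hq.2.1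
  have h3 := hp.1.two_le
  rcases Nat.lt_or_ge c 2 with h | h
  · interval_cases c
    · omega
    · omega
  · have : 2 * q ≤ q * c := by nlinarith
    omega

theorem exists_two_pi (n : ℕ) (hn : 5 ≤ n) (h6 : n ≠ 6) (h10 : n ≠ 10) :
    ∃ p q, Pi n p ∧ Pi n q ∧ p ≠ q := by
  rcases Nat.lt_or_ge n 18 with h | h
  · interval_cases n
    · exact ⟨3, 5, ⟨by norm_num, by norm_num, by norm_num⟩, ⟨by norm_num, by norm_num, by norm_num⟩, by norm_num⟩
    · exact absurd rfl h6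
    · exact ⟨5, 7, ⟨by norm_num, by norm_num, by norm_num⟩, ⟨by norm_num, by norm_num, by norm_num⟩, by norm_num⟩
    · exact ⟨5, 7, ⟨by norm_num, by norm_num, by norm_num⟩, ⟨by norm_num, by norm_num, by norm_num⟩, by norm_num⟩
    · exact ⟨5, 7, ⟨by norm_num, by norm_num, by norm_num⟩, ⟨by norm_num, by norm_num, by norm_num⟩, by norm_num⟩
    · exact absurd rfl h10
    · exact ⟨7, 11, ⟨by norm_num, by norm_num, by norm_num⟩, ⟨by norm_num, by norm_num, by norm_num⟩, by norm_num⟩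
    · exact ⟨7, 11, ⟨by norm_num, by norm_num, by norm_num⟩, ⟨by norm_num, by norm_num, by norm_num⟩, by norm_num⟩
    · exact ⟨7, 11, ⟨by norm_num, by norm_num, by norm_num⟩, ⟨by norm_num, by norm_num, by norm_num⟩, by norm_num⟩
    · exact ⟨11, 13, ⟨by norm_num, by norm_num, by norm_num⟩, ⟨by norm_num, by norm_num, by norm_num⟩, by norm_num⟩
    · exact ⟨11, 13, ⟨by norm_num, by norm_num, by norm_num⟩, ⟨by norm_num, by norm_num, by norm_num⟩, by norm_num⟩
    · exact ⟨11, 13, ⟨by norm_num, by norm_num, by norm_num⟩, ⟨by norm_num, by norm_num, by norm_num⟩, by norm_num⟩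
    · exact ⟨11, 13, ⟨by norm_num, by norm_num, by norm_num⟩, ⟨by norm_num, by norm_num, by norm_num⟩, by norm_num⟩
  · have hk : 9 ≤ n / 2 := by omega
    obtain ⟨p, q, hp, hq, h1, h2, h3⟩ : ∃ p q : ℕ, p.Prime ∧ q.Prime ∧ n / 2 < p ∧ p + 4 ≤ q ∧
        q ≤ 2 * (n / 2) := by
      rcases Nat.lt_or_ge (n / 2) 2048 with h' | h'
      · exact Cfsg.Agent.Lib.Helper63.Alt2P.small_pairs _ hk h'
      · exact Cfsg.Agent.Lib.Helper63.Alt2P.large_pairs _ h'
    exact ⟨p, q, ⟨hp, by omega, by omega⟩, ⟨hq, by omega, by omega⟩, by omega⟩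

/-- no element of order `p * q` in a group with the spectrum of `A_n`, `n < p + q`. -/
theorem no_order {G : Type*} [Group G] (n p q : ℕ) (hp : p.Prime) (hq : q.Prime) (hpq : p ≠ q)
    (hn : n < p + q)
    (hspec : Set.range (orderOf : G → ℕ) = Set.range (orderOf : ↥(alternatingGroup (Fin n)) → ℕ))
    (g : G) : orderOf g ≠ p * q := by
  intro h
  have h1 : p * q ∈ Set.range (orderOf : ↥(alternatingGroup (Fin n)) → ℕ) := by
    rw [← hspec]; exact ⟨g, h⟩
  obtain ⟨σ, hσ⟩ := h1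
  rw [← Subgroup.orderOf_coe] at hσ
  exact perm_orderOf_ne n p q hp hq hpq hn _ hσ

theorem not_solvable_of {G : Type*} [Group G] [Finite G] (p q a b m : ℕ) (hp : p.Prime) (hq : q.Prime)
    (hpq : p ≠ q) (ha : 1 ≤ a) (hb : 1 ≤ b)
    (hcard : Nat.card G = (p ^ a * q ^ b) * m) (hm : (p ^ a * q ^ b).Coprime m)
    (h1 : ∀ j, 1 ≤ j → j ≤ a → ¬ q ∣ p ^ j - 1) (h2 : ∀ j, 1 ≤ j → j ≤ b → ¬ p ∣ q ^ j - 1)
    (hno : ∀ g : G, orderOf g ≠ p * q) : ¬ Group.IsSolvable G := by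
  intro hs
  obtain ⟨K, hK⟩ := Cfsg.Agent.Lib.Helper1.hall_exists _ _ hcard hm
  have hKs : Group.IsSolvable K := inferInstance
  have hKnt : Nontrivial K := by
    rw [← Finite.one_lt_card_iff_nontrivial, hK]
    have := Nat.one_lt_pow (by omega : a ≠ 0) hp.one_lt
    have := Nat.pow_pos (n := b) hq.pos
    nlinarith
  obtain ⟨N, hN, hNp⟩ := Cfsg.Agent.Lib.Lead.exists_normal_primePow (G := K)
  obtain ⟨r, k, hr, hk, hrk⟩ := hNp
  have hr' : r.Prime := Nat.prime_iff.2 hr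
  have hdvd : r ^ k ∣ p ^ a * q ^ b := by rw [hrk, ← hK]; exact Subgroup.card_subgroup_dvd_card N
  -- general step
  have step : ∀ (r s c : ℕ), r.Prime → s.Prime → r ≠ s → s ∣ Nat.card K → Nat.card N = r ^ c →
      ¬ s ∣ r ^ c - 1 → ∃ g : G, orderOf g = r * s := by
    intro r s c hr hs hrs hsK hNc hnd
    have := Fact.mk hs
    obtain ⟨y, hy⟩ := exists_prime_orderOf_dvd_card' s hsK
    obtain ⟨x, hxN, hx1, hxy⟩ := exists_fixed N y s (by rw [← hy]; exact pow_orderOf_eq_one y)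
      (fun m hm => hN.conj_mem m hm y) (by rw [hNc]; exact hnd)
    have hxp : x ^ r ^ c = 1 := by
      have := pow_card_eq_one' (G := N) (x := ⟨x, hxN⟩)
      rw [hNc] at this
      exact congrArg Subtype.val this
    obtain ⟨g, -, hg⟩ := exists_orderOf_mul x y r s c hr hs hrs hxp hx1 hy hxy
    exact ⟨(g : G), by rw [Subgroup.orderOf_coe]; exact hg⟩
  have hrdvd : r ∣ p ^ a * q ^ b := (dvd_pow_self r hk.ne').trans hdvd
  rcases (Nat.Prime.dvd_mul hr').1 hrdvd with h | h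
  · have hrp : r = p := (Nat.prime_dvd_prime_iff_eq hr' hp).1 (hr'.dvd_of_dvd_pow h)
    subst hrp
    have hka : k ≤ a := by
      have h3 : r ^ k ∣ r ^ a :=
        (Nat.Coprime.pow k b ((Nat.coprime_primes hp hq).2 hpq)).dvd_of_dvd_mul_right hdvd
      exact (Nat.pow_dvd_pow_iff_le_right hp.one_lt).1 h3
    obtain ⟨g, hg⟩ := step r q k hp hq hpq (by rw [hK]; exact (dvd_pow_self q (by omega)).mul_left _)
      hrk.symm (h1 k hk hka)
    exact hno g hg
  · have hrq : r = q := (Nat.prime_dvd_prime_iff_eq hr' hq).1 (hr'.dvd_of_dvd_pow h)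
    subst hrq
    have hkb : k ≤ b := by
      have h3 : r ^ k ∣ r ^ b :=
        (Nat.Coprime.pow k a ((Nat.coprime_primes hq hp).2 hpq.symm)).dvd_of_dvd_mul_left hdvd
      exact (Nat.pow_dvd_pow_iff_le_right hq.one_lt).1 h3
    obtain ⟨g, hg⟩ := step r p k hq hp hpq.symm (by rw [hK]; exact (dvd_pow_self p (by omega)).mul_right _)
      hrk.symm (h2 k hk hkb)
    exact hno g (by rw [hg, mul_comm])

end Cfsg.Agent.Lib.Helper37.AltSpec
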