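import Mathlib
import Cfsg.Prelude
import Cfsg.Agent.Lib.Helper37.AltSpec2
import Cfsg.Agent.Lib.Helper14.PConstrained
import Cfsg.Agent.Lib.Helper29.Cores

set_option autoImplicit false

namespace Cfsg.Agent.Lib.Helper37.AltSpec

open Equiv Nat

theorem frattini_dvd {G : Type*} [Group G] [Finite G] (H : Subgroup G) [H.Normal] (p q : ℕ)
    (hp : p.Prime) (hq : q.Prime) (hpq : p ≠ q) (hpH : p ∣ Nat.card H) (hp2 : ¬ p ^ 2 ∣ Nat.card G)
    (hqG : q ∣ Nat.card G) (hqp : ¬ q ∣ p - 1) (hno : ∀ g : G, orderOf g ≠ p * q) :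
    q ∣ Nat.card H := by
  by_contra hqH
  have := Fact.mk hp
  have := Fact.mk hq
  obtain ⟨P⟩ : Nonempty (Sylow p H) := inferInstance
  have hPcard : Nat.card ((P : Subgroup H).map H.subtype) = p := by
    rw [Subgroup.card_map_of_injective H.subtype_injective]
    obtain ⟨k, hk⟩ := (IsPGroup.iff_card).1 P.2
    have h1 : p ∣ Nat.card (P : Subgroup H) := P.dvd_card_of_dvd_card hpH
    have h2 : p ^ k ∣ Nat.card G := by
      rw [← hk]
      exact (Subgroup.card_subgroup_dvd_card _).trans (Subgroup.card_subgroup_dvd_card H)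
    have hk2 : k < 2 := by
      by_contra hcon
      exact hp2 ((pow_dvd_pow p (by omega)).trans h2)
    have hk0 : k ≠ 0 := by
      rintro rfl
      rw [hk, pow_zero] at h1
      exact hp.one_lt.ne' (Nat.dvd_one.1 h1)
    obtain rfl : k = 1 := by omega
    rw [hk, pow_one]
  have htop := Sylow.normalizer_sup_eq_top P
  have h1 : q ∣ Nat.card H * Nat.card (Subgroup.normalizer
      (((P : Subgroup H).map H.subtype : Subgroup G) : Set G)) := by
    have h2 := Cfsg.Agent.Lib.Helper29.card_sup_dvd H (Subgroup.normalizer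
      (((P : Subgroup H).map H.subtype : Subgroup G) : Set G))
    rw [sup_comm, htop, Subgroup.card_top] at h2
    exact hqG.trans h2
  have h3 := ((Nat.Prime.dvd_mul hq).1 h1).resolve_left hqH
  obtain ⟨y, hy⟩ := exists_prime_orderOf_dvd_card' q h3
  have hy' : orderOf (y : G) = q := by rw [Subgroup.orderOf_coe]; exact hy
  obtain ⟨x, hxP, hx1, hxy⟩ := exists_fixed ((P : Subgroup H).map H.subtype) (y : G) q
    (by rw [← hy']; exact pow_orderOf_eq_one _)
    (fun m hm => (Subgroup.mem_normalizer_iff.1 y.2 m).1 hm) (by rw [hPcard]; exact hqp)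
  have hxp : x ^ p ^ 1 = 1 := by
    have := pow_card_eq_one' (G := ((P : Subgroup H).map H.subtype : Subgroup G)) (x := ⟨x, hxP⟩)
    rw [hPcard] at this
    rw [pow_one]
    exact congrArg Subtype.val this
  obtain ⟨g, -, hg⟩ := exists_orderOf_mul x (y : G) p q 1 hp hq hpq hxp hx1 hy' hxy
  exact hno g hg

theorem mem_of_pow_eq_one {X : Type*} [Group X] [Finite X] (L : Subgroup X) [L.Normal] (p : ℕ)
    (hp : p.Prime) (hi : ¬ p ∣ L.index) (z : X) (hz : z ^ p = 1) : z ∈ L := by
  have h1 : (L.index).Coprime (orderOf z) := by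
    apply Nat.Coprime.coprime_dvd_right (orderOf_dvd_of_pow_eq_one hz)
    exact Nat.Coprime.symm ((Nat.Prime.coprime_iff_not_dvd hp).2 hi)
  obtain ⟨m, hm⟩ := exists_pow_eq_self_of_coprime h1
  rw [← hm]
  exact pow_mem (Subgroup.pow_index_mem L z) m

theorem simple_section {G : Type*} [Group G] [Finite G] (n : ℕ) (hn : 5 ≤ n)
    (hval : ∀ p, Pi n p → p ∣ Nat.card G ∧ ¬ p ^ 2 ∣ Nat.card G)
    (hno : ∀ p q, Pi n p → Pi n q → p ≠ q → ∀ g : G, orderOf g ≠ p * q)
    (p0 q0 : ℕ) (hp0 : Pi n p0) (hq0 : Pi n q0) (hpq0 : p0 ≠ q0) :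
    ∃ (N H : Subgroup G) (_ : N.Normal), H.Normal ∧ N < H ∧
      IsSimpleGroup (↥H ⧸ N.subgroupOf H) ∧ ¬ IsMulCommutative (↥H ⧸ N.subgroupOf H) ∧
      ∀ p : ℕ, p.Prime → n < 2 * p → p ≤ n → p ∣ Nat.card (↥H ⧸ N.subgroupOf H) := by
  classical
  obtain ⟨H, hH⟩ := exists_minimal_of_wellFoundedLT
    (fun H : Subgroup G => H.Normal ∧ ∃ p, Pi n p ∧ p ∣ Nat.card H)
    ⟨⊤, inferInstance, p0, hp0, by rw [Subgroup.card_top]; exact (hval p0 hp0).1⟩
  obtain ⟨⟨hHn, p1, hp1, hp1H⟩, hHmin⟩ := hH
  have hall : ∀ q, Pi n q → q ∣ Nat.card H := by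
    intro q hq
    by_cases h : p1 = q
    · exact h ▸ hp1H
    · exact frattini_dvd H p1 q hp1.1 hq.1 h hp1H (hval p1 hp1).2 (hval q hq).1
        (pi_not_dvd hn hp1 hq) (hno p1 q hp1 hq h)
  have hHbot : H ≠ ⊥ := by
    rintro rfl
    rw [Subgroup.card_bot] at hp1H
    exact hp1.1.one_lt.ne' (Nat.dvd_one.1 hp1H)
  obtain ⟨N, hN⟩ := exists_maximal_of_wellFoundedGT
    (fun N : Subgroup G => N.Normal ∧ N < H) ⟨⊥, inferInstance, bot_lt_iff_ne_bot.2 hHbot⟩
  obtain ⟨⟨hNn, hNH⟩, hNmax⟩ := hN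
  have hNnd : ∀ p, Pi n p → ¬ p ∣ Nat.card N := by
    intro p hp hd
    exact absurd (hHmin ⟨hNn, p, hp, hd⟩ hNH.le) (not_le_of_gt hNH)
  have hcardN : Nat.card (N.subgroupOf H) = Nat.card N :=
    Nat.card_congr (Subgroup.subgroupOfEquivOfLe hNH.le).toEquiv
  have hquot : ∀ p, Pi n p → p ∣ Nat.card (↥H ⧸ N.subgroupOf H) := by
    intro p hp
    have h1 := Subgroup.card_eq_card_quotient_mul_card_subgroup (N.subgroupOf H)
    rw [hcardN] at h1
    have h2 := hall p hp
    rw [h1] at h2
    exact ((Nat.Prime.dvd_mul hp.1).1 h2).resolve_right (hNnd p hp)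
  have hp0sq : ¬ p0 ^ 2 ∣ Nat.card H := fun h =>
    (hval p0 hp0).2 (h.trans (Subgroup.card_subgroup_dvd_card H))
  have hsimple : IsSimpleGroup (↥H ⧸ N.subgroupOf H) := by
    have hnt : Nontrivial (↥H ⧸ N.subgroupOf H) := by
      rw [QuotientGroup.nontrivial_iff, Ne, Subgroup.subgroupOf_eq_top]
      exact not_le_of_gt hNH
    refine ⟨fun K hK => ?_⟩
    set L := K.comap (QuotientGroup.mk' (N.subgroupOf H)) with hL
    have hLn : L.Normal := hK.comap _
    have hNL : N.subgroupOf H ≤ L := by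
      intro x hx
      rw [hL, Subgroup.mem_comap]
      have : QuotientGroup.mk' (N.subgroupOf H) x = 1 := (QuotientGroup.eq_one_iff x).2 hx
      rw [this]; exact K.one_mem
    have hsurj : Function.Surjective (QuotientGroup.mk' (N.subgroupOf H)) :=
      QuotientGroup.mk'_surjective _
    by_cases hpL : p0 ∣ Nat.card L
    · right
      have hidx : ¬ p0 ∣ L.index := by
        intro h
        apply hp0sq
        rw [← Subgroup.card_mul_index L, pow_two]
        exact Nat.mul_dvd_mul hpL h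
      have := Fact.mk hp0.1
      obtain ⟨x, hx⟩ := exists_prime_orderOf_dvd_card' p0 hpL
      have hxC : ((x : H) : G) ∈ Subgroup.normalCore (L.map H.subtype) := by
        intro g
        have hz : g * ((x : H) : G) * g⁻¹ ∈ H := hHn.conj_mem _ (x : H).2 g
        refine ⟨⟨_, hz⟩, ?_, rfl⟩
        apply mem_of_pow_eq_one L p0 hp0.1 hidx
        apply Subtype.ext
        have h1 : ((x : H) : G) ^ p0 = 1 := by
          have h2 : x ^ p0 = 1 := by rw [← hx]; exact pow_orderOf_eq_one x
          have h3 := congrArg (fun t : L => ((t : H) : G)) h2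
          simpa using h3
        change (g * ((x : H) : G) * g⁻¹) ^ p0 = 1
        rw [conj_pow, h1]; group
      have hxo : orderOf ((x : H) : G) = p0 := by
        rw [Subgroup.orderOf_coe, Subgroup.orderOf_coe]; exact hx
      have hdC : p0 ∣ Nat.card (Subgroup.normalCore (L.map H.subtype)) := by
        have := orderOf_dvd_natCard (⟨_, hxC⟩ : Subgroup.normalCore (L.map H.subtype))
        rwa [Subgroup.orderOf_mk, hxo] at this
      have hCH : Subgroup.normalCore (L.map H.subtype) ≤ H :=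
        (Subgroup.normalCore_le _).trans (Subgroup.map_subtype_le _)
      have h4 := hHmin ⟨inferInstance, p0, hp0, hdC⟩ hCH
      have hLtop : L = ⊤ := by
        rw [eq_top_iff]
        intro z _
        obtain ⟨w, hw, hwz⟩ := (Subgroup.normalCore_le _) (h4 z.2)
        have : w = z := Subtype.ext hwz
        exact this ▸ hw
      apply Subgroup.comap_injective hsurj
      rw [← hL, hLtop, Subgroup.comap_top]
    · left
      have hLle : L ≤ Cfsg.pPrimeCore p0 H :=
        Cfsg.Agent.Lib.Helper29.le_pPrimeCore L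
          (Nat.Coprime.symm ((Nat.Prime.coprime_iff_not_dvd hp0.1).2 hpL))
      have hchar := Cfsg.Agent.Lib.Helper14.pPrimeCore_characteristic p0 H
      have hDn : ((Cfsg.pPrimeCore p0 H).map H.subtype).Normal :=
        ConjAct.normal_of_characteristic_of_normal
      have hDle : (Cfsg.pPrimeCore p0 H).map H.subtype ≤ H := Subgroup.map_subtype_le _
      have hDne : (Cfsg.pPrimeCore p0 H).map H.subtype ≠ H := by
        intro h
        have h1 : Nat.card ((Cfsg.pPrimeCore p0 H).map H.subtype) = Nat.card (Cfsg.pPrimeCore p0 H) :=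
          Subgroup.card_map_of_injective H.subtype_injective
        rw [h] at h1
        have h2 := Cfsg.Agent.Lib.Helper29.card_pPrimeCore_coprime (G := H) hp0.1
        rw [← h1] at h2
        exact (Nat.Prime.coprime_iff_not_dvd hp0.1).1 h2.symm (hall p0 hp0)
      have hND : N ≤ (Cfsg.pPrimeCore p0 H).map H.subtype := by
        intro x hx
        exact ⟨⟨x, hNH.le hx⟩, hLle (hNL (Subgroup.mem_subgroupOf.2 hx)), rfl⟩
      have h5 := hNmax ⟨hDn, lt_of_le_of_ne hDle hDne⟩ hND
      have hLN : L = N.subgroupOf H := by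
        apply le_antisymm _ hNL
        intro z hz
        rw [Subgroup.mem_subgroupOf]
        exact h5 ⟨z, hLle hz, rfl⟩
      apply Subgroup.comap_injective hsurj
      rw [← hL, hLN, MonoidHom.comap_bot, QuotientGroup.ker_mk']
  refine ⟨N, H, hNn, hHn, hNH, hsimple, ?_, fun p h1 h2 h3 => hquot p ⟨h1, h2, h3⟩⟩
  intro hcomm
  have key : ∀ p, Pi n p → Nat.card (↥H ⧸ N.subgroupOf H) = p := by
    intro p hp
    have := Fact.mk hp.1
    obtain ⟨x, hx⟩ := exists_prime_orderOf_dvd_card' p (hquot p hp)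
    have hnorm : (Subgroup.zpowers x).Normal := by
      constructor
      intro a ha g
      have : g * a * g⁻¹ = a := by
        rw [hcomm.is_comm.comm g a, mul_inv_cancel_right]
      rw [this]; exact ha
    rcases hsimple.eq_bot_or_eq_top_of_normal _ hnorm with h | h
    · rw [Subgroup.zpowers_eq_bot] at h
      rw [h, orderOf_one] at hx
      exact absurd hx.symm hp.1.one_lt.ne'
    · rw [← hx, ← Nat.card_zpowers, h, Subgroup.card_top]
  exact hpq0 ((key p0 hp0).symm.trans (key q0 hq0))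

end Cfsg.Agent.Lib.Helper37.AltSpec
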