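import Mathlib
import Cfsg.Prelude.Def_QuasithinSetup
import Cfsg.Agent.Lib.Helper52.PRed2
import Cfsg.Agent.Lib.Helper52.Stab
import Cfsg.Agent.Lib.Helper52.Subn
import Cfsg.Agent.Lib.Helper28.BigSub
import Cfsg.Agent.Lib.Helper37.CharPMore
import Cfsg.Agent.Lib.Helper53.Basic

set_option autoImplicit false

namespace Cfsg.Agent.Lib.Helper37

open Cfsg.Agent.Lib

universe u

/-- a `p'`-element `x` of a subnormal subgroup `K` centralizing `U ∩ K`, `U` normal of exponent `p`,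
centralizes `U` -/
theorem commute_of_subnormal_of_inf {X : Type*} [Group X] {p : ℕ} (U : Subgroup X) [hUn : U.Normal]
    (hU : ∀ u ∈ U, u ^ p = 1) (x : X) (hc : Nat.Coprime (orderOf x) p) {K : Subgroup X}
    (hK : K.IsSubnormal) (hx : x ∈ K) (h : ∀ u ∈ U ⊓ K, x * u = u * x) :
    ∀ u ∈ U, x * u = u * x := by
  induction hK with
  | top => exact fun u hu => h u ⟨hu, trivial⟩
  | step H' K' hle _ hN ih =>
    apply ih (hle hx)
    rw [Subgroup.normal_subgroupOf_iff_le_normalizer hle] at hN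
    have h1 := Helper52.pow_centralizes x (U ⊓ K') (U ⊓ H') p (by
      intro a ha
      refine ⟨?_, ?_⟩
      · exact U.mul_mem (hUn.conj_mem a ha.1 x) (U.inv_mem ha.1)
      · have h2 : a * x⁻¹ * a⁻¹ ∈ H' :=
          (Subgroup.mem_normalizer_iff.1 (hN ha.2) _).1 (H'.inv_mem hx)
        have h3 : x * a * x⁻¹ * a⁻¹ = x * (a * x⁻¹ * a⁻¹) := by group
        rw [h3]
        exact H'.mul_mem hx h2) h (fun b hb => hU b hb.1)
    intro u hu
    obtain ⟨m, hm⟩ := exists_pow_eq_self_of_coprime hc.symm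
    have h2 : Commute (x ^ p) u := h1 u hu
    have h3 : Commute ((x ^ p) ^ m) u := h2.pow_left m
    rw [hm] at h3
    exact h3

/-- relative form of `commute_of_subnormal_of_inf` -/
theorem commute_of_rel_subnormal_of_inf {G : Type*} [Group G] {p : ℕ} {U K H : Subgroup G}
    (hKH : K ≤ H) (hsn : (K.subgroupOf H).IsSubnormal) (hUH : U ≤ H)
    (hn : H ≤ Subgroup.normalizer (U : Set G)) (hU : ∀ u ∈ U, u ^ p = 1) {x : G} (hx : x ∈ K)
    (hc : Nat.Coprime (orderOf x) p) (h : ∀ u ∈ U ⊓ K, x * u = u * x) :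
    ∀ u ∈ U, x * u = u * x := by
  have hUn : (U.subgroupOf H).Normal := (Subgroup.normal_subgroupOf_iff_le_normalizer hUH).2 hn
  intro u hu
  have := commute_of_subnormal_of_inf (p := p) (U.subgroupOf H)
    (fun v hv => Subtype.ext (by simpa using hU v.1 (Subgroup.mem_subgroupOf.1 hv)))
    (⟨x, hKH hx⟩ : ↥H) (by rw [Subgroup.orderOf_mk]; exact hc) hsn
    (Subgroup.mem_subgroupOf.2 hx)
    (fun v hv => Subtype.ext (h v.1 ⟨Subgroup.mem_subgroupOf.1 hv.1, Subgroup.mem_subgroupOf.1 hv.2⟩))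
    ⟨u, hUH hu⟩ (Subgroup.mem_subgroupOf.2 hu)
  exact congrArg Subtype.val this

/-- `O_p(K) ≤ O_p(H)` for `K` subnormal in `H` -/
theorem pCoreOf_le_of_rel_subnormal {G : Type*} [Group G] {p : ℕ} {K H : Subgroup G}
    (hKH : K ≤ H) (hsn : (K.subgroupOf H).IsSubnormal) :
    Cfsg.pCoreOf p K ≤ Cfsg.pCoreOf p H := by
  have hA : Cfsg.pCoreOf p K ≤ K := Helper52.pCoreOf_le K
  have h1 : ((Cfsg.pCoreOf p K).subgroupOf H).IsSubnormal := by
    refine Subgroup.IsSubnormal.step _ _ (Subgroup.subgroupOf_mono H hA) hsn ?_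
    rw [Subgroup.normal_subgroupOf_iff_le_normalizer (Subgroup.subgroupOf_mono H hA)]
    apply Helper52.le_normalizer_of_conj_mem
    intro g hg x hx
    rw [Subgroup.mem_subgroupOf] at hg hx ⊢
    exact Helper52.mem_normalizer_conj (Helper52.le_normalizer_pCoreOf K hg) hx
  have h2 := Helper52.le_pCore_of_isSubnormal (p := p) h1
    (Helper52.isPGroup_subgroupOf (Helper53.pCoreOf_isPGroup p K))
  have h3 := Subgroup.map_mono (f := H.subtype) h2
  rwa [Subgroup.map_subgroupOf_eq_of_le (hA.trans hKH)] at h3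

/-- `O_p(H)` normalizes the subnormal subgroup `K = O^p(K)` -/
theorem pCoreOf_le_normalizer_of_rel_subnormal {G : Type*} [Group G] {p : ℕ} {K H : Subgroup G}
    (hKH : K ≤ H) (hsn : (K.subgroupOf H).IsSubnormal) (hres : Helper52.pResOf p K = K) :
    Cfsg.pCoreOf p H ≤ Subgroup.normalizer (K : Set G) := by
  apply Helper52.le_normalizer_of_conj_mem
  intro a ha x hx
  have h1 : Helper52.pResOf p K ≤ K.comap (MulAut.conj a).toMonoidHom := by
    apply (Subgroup.closure_le _).2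
    intro y hy
    obtain ⟨a', ha', rfl⟩ := ha
    have hn : (Cfsg.pCore p ↥H).Normal := Helper53.pCore_normal p ↥H
    have h2 := Helper52.mem_of_mem_sup_of_isSubnormal (p := p) (P := Cfsg.pCore p ↥H) hsn
      (Helper53.pCore_isPGroup p ↥H) (g := a' * ⟨y, hKH hy.1⟩ * a'⁻¹)
      (Subgroup.mul_mem _ (Subgroup.mul_mem _ (Subgroup.mem_sup_right ha')
        (Subgroup.mem_sup_left (Subgroup.mem_subgroupOf.2 hy.1)))
        (Subgroup.inv_mem _ (Subgroup.mem_sup_right ha')))
      (by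
        have h3 : orderOf (a' * ⟨y, hKH hy.1⟩ * a'⁻¹ : ↥H) = orderOf y :=
          (orderOf_injective (MulAut.conj a').toMonoidHom (MulAut.conj a').injective _).trans
            (Subgroup.orderOf_mk y (hKH hy.1))
        rw [h3]; exact hy.2)
    exact Subgroup.mem_subgroupOf.1 h2
  rw [hres] at h1
  exact h1 hx

/-- `K ∩ O_p(H) ≤ O_p(K)` -/
theorem inf_pCoreOf_le {G : Type*} [Group G] {p : ℕ} {K H : Subgroup G} (hKH : K ≤ H) :
    K ⊓ Cfsg.pCoreOf p H ≤ Cfsg.pCoreOf p K := by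
  apply Helper52.le_pCoreOf inf_le_left
  · apply Helper52.le_normalizer_of_conj_mem
    intro g hg x hx
    exact ⟨K.mul_mem (K.mul_mem hg hx.1) (K.inv_mem hg),
      Helper52.mem_normalizer_conj (Helper52.le_normalizer_pCoreOf H (hKH hg)) hx.2⟩
  · exact (Helper53.pCoreOf_isPGroup p H).to_le inf_le_right

/-- `K = O^p(K)` subnormal in `H`: if `K` centralizes `Ω₁Z(O_p(H))` then it centralizes
`Ω₁Z(O_p(K))` -/
theorem le_centralizer_omegaZ_of_rel_subnormal {G : Type*} [Group G] [Finite G] {p : ℕ}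
    [Fact p.Prime] {K H : Subgroup G}
    (hKH : K ≤ H) (hsn : (K.subgroupOf H).IsSubnormal) (hres : Helper52.pResOf p K = K)
    (h : K ≤ Subgroup.centralizer (Cfsg.omegaOne p (Cfsg.pCoreOf p H ⊓
      Subgroup.centralizer (Cfsg.pCoreOf p H : Set G)) : Set G)) :
    K ≤ Subgroup.centralizer (Cfsg.omegaOne p (Cfsg.pCoreOf p K ⊓
      Subgroup.centralizer (Cfsg.pCoreOf p K : Set G)) : Set G) := by
  have hQN := pCoreOf_le_normalizer_of_rel_subnormal hKH hsn hres
  have hQQ := pCoreOf_le_of_rel_subnormal (p := p) hKH hsn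
  conv_lhs => rw [← hres]
  apply (Subgroup.closure_le _).2
  intro x hx
  apply Helper52.mem_centralizer_of_commuting_actions (p := p) (D := Cfsg.pCoreOf p H)
    (Helper52.omegaZ_isElementaryAbelian _)
  · exact Helper52.normalizer_le_normalizer_omegaZ _ (Helper52.le_normalizer_pCoreOf K hx.1)
  · exact hQN.trans ((Helper52.normalizer_le_normalizer_pCoreOf K).trans
      (Helper52.normalizer_le_normalizer_omegaZ _))
  · intro d hd
    obtain ⟨k, hk⟩ := Helper53.pCoreOf_isPGroup p H ⟨d, hd⟩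
    refine ⟨k, ?_⟩
    have : d ^ p ^ k = 1 := by simpa using congrArg Subtype.val hk
    rw [this]
    exact Subgroup.one_mem _
  · intro e he y hy
    have hyK : y ∈ K := (Subgroup.zpowers_le.2 hx.1) hy
    have h1 : e * y * e⁻¹ * y⁻¹ ∈ K ⊓ Cfsg.pCoreOf p H := by
      refine ⟨K.mul_mem (Helper52.mem_normalizer_conj (hQN he) hyK) (K.inv_mem hyK), ?_⟩
      have h3 : e * y * e⁻¹ * y⁻¹ = e * (y * e⁻¹ * y⁻¹) := by group
      rw [h3]
      exact Subgroup.mul_mem _ he (Helper52.mem_normalizer_conj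
        (Helper52.le_normalizer_pCoreOf H (hKH hyK)) (Subgroup.inv_mem _ he))
    have h2 := inf_pCoreOf_le hKH h1
    rw [Subgroup.mem_centralizer_iff]
    intro v hv
    rw [SetLike.mem_coe, Helper52.mem_omegaZ] at hv
    exact (Subgroup.mem_centralizer_iff.1 hv.2.1 _ h2).symm
  · rw [Subgroup.mem_centralizer_iff]
    intro v hv
    have hv1 := (Helper52.mem_omegaZ.1 hv.1)
    have hvU : v ∈ Cfsg.omegaOne p (Cfsg.pCoreOf p H ⊓
        Subgroup.centralizer (Cfsg.pCoreOf p H : Set G)) :=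
      Helper52.mem_omegaZ.2 ⟨hQQ hv1.1, hv.2, hv1.2.2⟩
    exact Subgroup.mem_centralizer_iff.1 (h hx.1) v hvU
  · exact hx.2

/-- `K = O^p(K)` subnormal in `H`: if `K` centralizes `Ω₁Z(O_p(K))` then it centralizes
`Ω₁Z(O_p(H))` -/
theorem le_centralizer_omegaZ_of_rel_subnormal' {G : Type*} [Group G] [Finite G] {p : ℕ}
    [Fact p.Prime] {K H : Subgroup G}
    (hKH : K ≤ H) (hsn : (K.subgroupOf H).IsSubnormal) (hres : Helper52.pResOf p K = K)
    (h : K ≤ Subgroup.centralizer (Cfsg.omegaOne p (Cfsg.pCoreOf p K ⊓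
      Subgroup.centralizer (Cfsg.pCoreOf p K : Set G)) : Set G)) :
    K ≤ Subgroup.centralizer (Cfsg.omegaOne p (Cfsg.pCoreOf p H ⊓
      Subgroup.centralizer (Cfsg.pCoreOf p H : Set G)) : Set G) := by
  have hQQ := pCoreOf_le_of_rel_subnormal (p := p) hKH hsn
  conv_lhs => rw [← hres]
  apply (Subgroup.closure_le _).2
  intro x hx
  rw [SetLike.mem_coe, Subgroup.mem_centralizer_iff]
  intro u hu
  refine (commute_of_rel_subnormal_of_inf (p := p) hKH hsn (U := Cfsg.omegaOne p (Cfsg.pCoreOf p H ⊓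
      Subgroup.centralizer (Cfsg.pCoreOf p H : Set G))) ?_ ?_ ?_ hx.1 hx.2 ?_ u hu).symm
  · intro v hv
    exact Helper52.pCoreOf_le H (Helper52.mem_omegaZ.1 hv).1
  · exact (Helper52.le_normalizer_pCoreOf H).trans (Helper52.normalizer_le_normalizer_omegaZ _)
  · intro v hv
    exact (Helper52.mem_omegaZ.1 hv).2.2
  · intro v hv
    have hv1 := Helper52.mem_omegaZ.1 hv.1
    have hvV : v ∈ Cfsg.omegaOne p (Cfsg.pCoreOf p K ⊓
        Subgroup.centralizer (Cfsg.pCoreOf p K : Set G)) :=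
      Helper52.mem_omegaZ.2 ⟨inf_pCoreOf_le hKH ⟨hv.2, hv1.1⟩,
        Subgroup.centralizer_le (SetLike.coe_subset_coe.2 hQQ) hv1.2.1, hv1.2.2⟩
    exact (Subgroup.mem_centralizer_iff.1 (h hx.1) v hvV).symm

/-- In a group of even characteristic, an overgroup `H` of a Sylow 2-subgroup with `O₂(H) ≠ 1` has
characteristic 2. -/
theorem charP_of_evenChar {G : Type u} [Group G] [Finite G] (hE : Cfsg.IsOfEvenCharacteristic G)
    (T : Sylow 2 G) {H : Subgroup G} (hTH : (T : Subgroup G) ≤ H) (hH : Cfsg.pCore 2 ↥H ≠ ⊥) :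
    CharP 2 ↥H := by
  have : Fact (Nat.Prime 2) := ⟨Nat.prime_two⟩
  have hR1 : Cfsg.pCoreOf 2 H ≠ ⊥ := by
    intro h0
    exact hH ((Subgroup.map_eq_bot_iff_of_injective _ H.subtype_injective).1 h0)
  have hHM := Helper52.le_normalizer_pCoreOf (p := 2) H
  have hM := hE _ ⟨_, Helper53.pCoreOf_isPGroup 2 H, hR1, rfl⟩ ⟨T, hTH.trans hHM⟩
  set M := Subgroup.normalizer (Cfsg.pCoreOf 2 H : Set G) with hMdef
  have hM' := Helper52.charP_subtype_iff.1 hM
  have h1 : Cfsg.pCoreOf 2 M ≤ Cfsg.pCoreOf 2 H := by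
    apply Helper52.le_pCoreOf ((Helper52.pCoreOf_le_sylow T (hTH.trans hHM)).trans hTH)
      (hHM.trans (Helper52.le_normalizer_pCoreOf M)) (Helper53.pCoreOf_isPGroup 2 M)
  apply Helper52.charP_subtype_iff.2
  intro x hx
  exact h1 (hM' ⟨hHM hx.1, Subgroup.centralizer_le (SetLike.coe_subset_coe.2 h1) hx.2⟩)

theorem oddGenerated_eq_pResOf {G : Type*} [Group G] (K : Subgroup G) :
    Cfsg.oddGenerated K = Helper52.pResOf 2 K := by
  unfold Cfsg.oddGenerated Helper52.pResOf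
  congr 1
  ext x
  simp only [Set.mem_ofPred_eq, Nat.coprime_two_right]

theorem pResOf_eq_of_perfect {G : Type*} [Group G] [Finite G] (p : ℕ) [Fact p.Prime]
    {K : Subgroup G} (hK : ⁅K, K⁆ = K) : Helper52.pResOf p K = K := by
  have h1 : Group.IsPerfect ↥K := by
    constructor
    apply Subgroup.map_injective K.subtype_injective
    rw [commutator_def, Subgroup.map_commutator, ← MonoidHom.range_eq_map, Subgroup.range_subtype, hK]
  rw [← Helper52.pResidual_map_subtype, Helper28.pResidual_eq_top_of_isPerfect p h1,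
    ← MonoidHom.range_eq_map, Subgroup.range_subtype]

end Cfsg.Agent.Lib.Helper37
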